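import Cfsg.Agent.CosetEnum.Step
import Cfsg.Agent.CosetEnum.MA7.BP0
import Cfsg.Agent.CosetEnum.Level
import Cfsg.Agent.CosetEnum.MA7.TR0

/-! Certificates of coset enumerations and tables (generated, owner: helper28). -/

set_option autoImplicit false
set_option maxRecDepth 1000000

namespace Cfsg.Agent.CosetEnum.MA7B

theorem st : staticOK 10 iv (RL.map expand) subs P L = true := by decide +kernel

theorem seg : Seg P L P.m 7 :=
  (Seg.nil).snoc part0

theorem cert : Cert 10 iv RL subs 7 := fun g H hl hrels hsubs =>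
  upper g H 10 iv hl (RL.map expand) subs hrels hsubs P L rfl st seg

end Cfsg.Agent.CosetEnum.MA7B
namespace Cfsg.Agent.CosetEnum.MA7T

theorem st : letsB 10 iv lets RL = true := by decide +kernel

theorem tabOK : TabOK P 10 iv lets RL := ⟨st, Cov.of r0 rfl⟩

theorem covO : Cov (orbC P lets [] 0 P.m) 0 P.m := Cov.of o0 rfl

end Cfsg.Agent.CosetEnum.MA7T
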